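import Cfsg.Agent.BLK.Gg.Defs2
import Cfsg.Agent.BLK.Gg.X3
import Cfsg.Agent.BLK.Gg.SLa
import Cfsg.Agent.BLK.Gg.SLc
import Mathlib.GroupTheory.Nilpotent

/-!
`Π`, step 1: two pieces.
-/

set_option autoImplicit false

namespace CL.Gg.Pi1b

open Subgroup Cfsg CL.MSS

universe u v

variable {X : Type u} {V : Type v} [Group X] [Finite X] [AddCommGroup V]
  [DistribMulAction X V]

variable {x : X} {E : Subgroup X}

omit [Finite X] in
theorem x_mem (c : Cf V x E) : x ∈ normalizer (E : Set X) := by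
  refine centralizer_le_normalizer _ fun e he => ?_
  exact (c.le he x rfl).symm

theorem dec (c : Cf V x E)
    (hm : ∀ s : X, (∃ k : ℕ, s ^ 2 ^ k = 1) → s ∈ normalizer (E : Set X) → s * x = x * s → s ∈ E)
    (hL : L2o (X3 (normalizer (E : Set X)))) {s : X}
    (hs : ∃ k : ℕ, s ^ 2 ^ k = 1) (hn : s ∈ normalizer (E : Set X)) :
    ∃ e ∈ E, ∃ l ∈ X3 (normalizer (E : Set X)), l ^ 2 = 1 ∧ s = e * l := by
  have hxN := x_mem c
  generalize normalizer (E : Set X) = N at *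
  have hnorm : ((X3 N).subgroupOf N).Normal :=
    normal_subgroupOf_of_le_normalizer (le_normalizer.trans (normalizer_le_X3 N))
  have hL' : L2o ((X3 N).subgroupOf N) := L2o.of_equiv (subgroupOfEquivOfLe (X3_le N)) hL
  obtain ⟨k, hk⟩ := hs
  obtain ⟨l, hl, ⟨j, hj⟩, hc⟩ := L2o.inner ((X3 N).subgroupOf N) hL' (u := ⟨s, hn⟩) ⟨k, Subtype.ext hk⟩
  have hj' : (l : X) ^ 2 ^ j = 1 := congrArg Subtype.val hj
  have h1 : (l : X) * ((l : X)⁻¹ * s) = (l : X)⁻¹ * s * l := congrArg Subtype.val (hc l hl)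
  have h2 : x * ((l : X)⁻¹ * s) = (l : X)⁻¹ * s * x :=
    congrArg Subtype.val (hc ⟨x, hxN⟩ (mem_X3 hxN c.ox))
  have h3 : s = (l : X)⁻¹ * s * l := by rw [← h1]; group
  have hcm : Commute (l : X)⁻¹ s := by
    refine Commute.inv_left ?_
    show (l : X) * s = s * l
    conv_lhs => rw [h3]
    group
  refine ⟨(l : X)⁻¹ * s, hm _ ⟨j + k, ?_⟩ (N.mul_mem (N.inv_mem l.2) hn) h2.symm, l, hl, ?_, h3⟩
  · rw [hcm.mul_pow, inv_pow, pow_add, pow_mul, hj', one_pow, inv_one, one_mul, mul_comm, pow_mul, hk,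
      one_pow]
  · exact congrArg Subtype.val (hL.l2e.sq (s := ⟨l, hl⟩) ⟨j, Subtype.ext hj'⟩)

theorem syl (hsc : ∀ e ∈ E, ∀ g : X, g * e * g⁻¹ ∈ normalizer (E : Set X) → g * e * g⁻¹ ∈ E)
    (T : Sylow 2 X) (hT : E ≤ T) : (T : Subgroup X) ≤ normalizer (E : Set X) := by
  have : Fact (Nat.Prime 2) := ⟨Nat.prime_two⟩
  have := T.isPGroup'.isNilpotent
  have hnc : NormalizerCondition T := Group.normalizerCondition_of_isNilpotent
  rw [normalizerCondition_iff_only_full_group_self_normalizing] at hnc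
  rw [← subgroupOf_eq_top]
  refine hnc _ (le_antisymm (fun g hg => ?_) le_normalizer)
  refine mem_normalizer_fintype fun e he => hsc e he g ?_
  exact (mem_normalizer_iff.1 hg ⟨e, hT he⟩).1 (le_normalizer he)

end CL.Gg.Pi1b
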