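import Cfsg.Agent.BLK.Gg.Defs
import Cfsg.Agent.S2117
import Cfsg.Agent.FGS.SchurHopf
import Cfsg.Agent.KSG.SL2Mult

/-!
The multiplier of `SL₂(2^k)`, `k ≥ 3` odd.
-/

set_option autoImplicit false
set_option maxHeartbeats 400000

namespace CL.Gg.SLc2

open Subgroup Cfsg CL.MSS

universe u v

variable {Y : Type u} [Group Y] [Finite Y]

omit [Finite Y] in
theorem schur (h3 : X3 (⊤ : Subgroup Y) = ⊤) (Z : Subgroup Y) [Z.Normal] (hZ : IsPGroup 2 Z)
    (hc : Z ≤ center Y) (hL : L2o (Y ⧸ Z)) : Z = ⊥ := by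
  obtain ⟨F, _, _, k, hk, h3k, hF, ⟨e⟩⟩ := hL
  have h8 : 8 ≤ Fintype.card F := by
    rw [hF]; exact Nat.pow_le_pow_right (by norm_num : 0 < 2) h3k
  have h9 : Fintype.card F ≠ 9 := by
    intro h
    have : 2 ∣ Fintype.card F := by rw [hF]; exact dvd_pow_self 2 (by omega)
    omega
  have hM := Cfsg.Agent.S2117.result (F := F) (by omega) h9
  have hP : Group.IsPerfect (Matrix.SpecialLinearGroup (Fin 2) F) :=
    CL.Dk.isPerfect_SL2 (by rw [Nat.card_eq_fintype_card]; omega)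
  let σ : Y →* Matrix.SpecialLinearGroup (Fin 2) F := e.toMonoidHom.comp (QuotientGroup.mk' Z)
  have hs : Function.Surjective σ := e.surjective.comp (QuotientGroup.mk'_surjective Z)
  have hker : σ.ker = Z := by
    ext y
    simp [σ]
  have hmap : (commutator Y).map σ = ⊤ := by
    rw [map_commutator_eq, MonoidHom.range_eq_top.2 hs, ← commutator_def]
    exact Group.IsPerfect.commutator_eq_top
  have hY : commutator Y = ⊤ := by
    rw [eq_top_iff, ← h3, X3, closure_le]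
    rintro x ⟨-, hx⟩
    obtain ⟨c, hc1, hc2⟩ : σ x ∈ (commutator Y).map σ := hmap ▸ mem_top _
    have hz : c⁻¹ * x ∈ Z := by
      rw [← hker, MonoidHom.mem_ker, map_mul, map_inv, hc2, inv_mul_cancel]
    obtain ⟨n, hn⟩ := hZ ⟨_, hz⟩
    have hn' : (c⁻¹ * x) ^ 2 ^ n = 1 := congrArg Subtype.val hn
    have h1 : ((x : Y ⧸ commutator Y)) ^ 2 ^ n = 1 := by
      have h2 : ((c⁻¹ * x : Y) : Y ⧸ commutator Y) = x := by
        rw [QuotientGroup.mk_mul, (QuotientGroup.eq_one_iff _).2 (inv_mem hc1), one_mul]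
      rw [← h2, ← QuotientGroup.mk_pow, hn', QuotientGroup.mk_one]
    have h2 : ((x : Y ⧸ commutator Y)) ^ 3 = 1 := by
      rw [← QuotientGroup.mk_pow, ← hx, pow_orderOf_eq_one, QuotientGroup.mk_one]
    have h4 : orderOf (x : Y ⧸ commutator Y) ∣ Nat.gcd (2 ^ n) 3 :=
      Nat.dvd_gcd (orderOf_dvd_of_pow_eq_one h1) (orderOf_dvd_of_pow_eq_one h2)
    rw [(Nat.Coprime.pow_left n (by norm_num : Nat.Coprime 2 3)).gcd_eq_one, Nat.dvd_one,
      orderOf_eq_one_iff] at h4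
    exact (QuotientGroup.eq_one_iff _).1 h4
  have hb := CL.Schur.stemKer_eq_bot_of_trivial hM (ξ := σ) ⟨hs, hker ▸ hc⟩
  rwa [CL.Schur.stemKer, hY, inf_top_eq, hker] at hb

end CL.Gg.SLc2
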