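import Cfsg.Agent.BLK.Gg.Q2
import Cfsg.Agent.BLK.Gg.Odd
import Cfsg.Agent.BLK.Gg.X3

/-!
The core of `Md.shapeA`.
-/

set_option autoImplicit false

namespace CL.Gg.Shp2

open Subgroup Cfsg CL.MSS
open scoped commutatorElement

universe u v

variable {X : Type u} {V : Type v} [Group X] [Finite X] [AddCommGroup V] [Finite V]
  [DistribMulAction X V]

theorem noA (h : Md X V) (hO : pCore 2 X = ⊥) {J : Subgroup X} {x : X} (hxJ : x ∈ J) (hx : orderOf x = 3) {t : X}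
    (ht : t ∈ ⁅pCoreOf 2 J, zpowers x⁆) (h1 : t ≠ 1) (hle : ⁅At V t, zpowers x⁆ ≤ pCoreOf 2 J) :
    NoA (J ⧸ pCore 2 J) := by
  have hp := CL.Amalg.isPGroup_pCore' 2 J
  have key : ∀ D : Subgroup (J ⧸ pCore 2 J), IsPGroup 2 D →
      ((⟨x, hxJ⟩ : J) : J ⧸ pCore 2 J) ∈ normalizer (D : Set (J ⧸ pCore 2 J)) →
      ((⟨x, hxJ⟩ : J) : J ⧸ pCore 2 J) ∈ centralizer (D : Set (J ⧸ pCore 2 J)) := by
    intro D hD hn e he
    obtain ⟨e, rfl⟩ := QuotientGroup.mk_surjective e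
    have hE : IsPGroup 2 ((D.comap (QuotientGroup.mk' (pCore 2 J))).map J.subtype) :=
      (hD.comap_of_ker_isPGroup _ (by rwa [QuotientGroup.ker_mk'])).map _
    have hn' : x ∈ normalizer (((D.comap (QuotientGroup.mk' (pCore 2 J))).map J.subtype : Subgroup X) : Set X) :=
      le_normalizer_map _ ⟨⟨x, hxJ⟩, le_normalizer_comap _ hn, rfl⟩
    have hOE : pCoreOf 2 J ≤ (D.comap (QuotientGroup.mk' (pCore 2 J))).map J.subtype := map_mono fun a ha => by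
      rw [mem_comap, QuotientGroup.mk'_apply, (QuotientGroup.eq_one_iff a).2 ha]
      exact one_mem _
    have h2 := (h.q2_le hO hE hx hn' (commutator_mono hOE le_rfl ht) h1).2
    have h3 := (comm_comm hE hx hn').ge.trans ((commutator_mono h2 le_rfl).trans hle)
    have h4 := h3 (commutator_mem_commutator (g₁ := e.1) ⟨e, he, rfl⟩ (mem_zpowers x))
    have h5 : ⁅e, (⟨x, hxJ⟩ : J)⁆ ∈ pCore 2 J := (CL.Amalg.mem_pCoreOf_coe _).1 h4
    rw [← QuotientGroup.eq_one_iff, ← QuotientGroup.mk'_apply, map_commutatorElement,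
      commutatorElement_eq_one_iff_mul_comm] at h5
    exact h5
  intro y hy E hE hn e he
  obtain ⟨y, oy, rfl⟩ := lift3 _ hp hy
  obtain ⟨g, hg, hc⟩ := h.conj3 J y.2 hxJ ((orderOf_coe y).trans oy) hx
  let c := MulAut.conj (((⟨g, hg⟩ : J) : J ⧸ pCore 2 J))
  have h2 : c y ∈ normalizer ((E.map c.toMonoidHom : Subgroup _) : Set (J ⧸ pCore 2 J)) :=
    le_normalizer_map _ ⟨y, hn, rfl⟩
  have h3 : c y ∈ centralizer ((E.map c.toMonoidHom : Subgroup _) : Set (J ⧸ pCore 2 J)) := by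
    rcases hc with hc | hc
    · have e1 : c y = ((⟨x, hxJ⟩ : J) : J ⧸ pCore 2 J) :=
        congrArg QuotientGroup.mk (Subtype.ext hc : (⟨g, hg⟩ : J) * y * (⟨g, hg⟩ : J)⁻¹ = ⟨x, hxJ⟩)
      rw [e1] at h2 ⊢
      exact key _ (hE.map _) h2
    · have e1 : c y = ((⟨x, hxJ⟩ : J) : J ⧸ pCore 2 J)⁻¹ :=
        congrArg QuotientGroup.mk (Subtype.ext hc : (⟨g, hg⟩ : J) * y * (⟨g, hg⟩ : J)⁻¹ = (⟨x, hxJ⟩ : J)⁻¹)
      rw [e1] at h2 ⊢
      exact inv_mem (key _ (hE.map _) (inv_mem_iff.1 h2))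
  refine c.injective ?_
  rw [map_mul, map_mul]
  exact h3 _ ⟨e, he, rfl⟩

theorem top {J : Subgroup X} (hJ : J ≤ pCoreOf 2 J ⊔ X3 J) : X3 (⊤ : Subgroup (J ⧸ pCore 2 J)) = ⊤ := by
  have hp := CL.Amalg.isPGroup_pCore' 2 J
  have h1 : pCoreOf 2 J ⊔ X3 J ≤ ((X3 ⊤).comap (QuotientGroup.mk' (pCore 2 J))).map J.subtype := by
    refine sup_le (map_mono fun a ha => ?_) ((closure_le _).2 fun z hz => ?_)
    · rw [mem_comap, QuotientGroup.mk'_apply, (QuotientGroup.eq_one_iff a).2 ha]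
      exact one_mem _
    · exact ⟨⟨z, hz.1⟩, mem_X3 (mem_top _) (ord3_mk _ hp ((orderOf_coe _).symm.trans hz.2)), rfl⟩
  refine eq_top_iff.2 fun y _ => ?_
  obtain ⟨a, rfl⟩ := QuotientGroup.mk_surjective y
  obtain ⟨b, hb, e⟩ := h1 (hJ a.2)
  exact Subtype.ext e ▸ hb

end CL.Gg.Shp2
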