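import Cfsg.Agent.BLK.Gg.X3
import Cfsg.Agent.BLK.Gg.SLc

/-!
The group theory of `Md.x3_sub`.
-/

set_option autoImplicit false

namespace CL.Gg.Shp3

open Subgroup Cfsg CL.MSS

universe u

theorem core {K : Type u} [Group K] [Finite K] (hA : NoA K) (h3 : X3 (⊤ : Subgroup K) = ⊤) {x : K}
    (hx : orderOf x = 3) (hs : Shape K) : zpowers x = ⊤ ∨ L2o K := by
  have hp : IsPGroup 2 (pCore 2 K) := CL.Amalg.isPGroup_pCore' 2 K
  have hc : pCore 2 K ≤ center K := fun o ho => mem_center_iff.2 fun g => by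
    have : X3 (⊤ : Subgroup K) ≤ centralizer ({o} : Set K) := (closure_le _).2 fun y hy =>
      mem_centralizer_singleton_iff.2
        (hA y hy.2 _ hp ((pCore 2 K).normalizer_eq_top ▸ mem_top y) o ho).symm
    exact mem_centralizer_singleton_iff.1 (this (h3.ge (mem_top g)))
  rcases hs with hs | hs
  · refine Or.inl (eq_top_iff.2 (h3.ge.trans ((closure_le _).2 fun y hy => ?_)))
    have ht : zpowers (x : K ⧸ pCore 2 K) = ⊤ :=
      eq_top_of_card_eq _ (by rw [Nat.card_zpowers, ord3_mk _ hp hx, hs])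
    obtain ⟨i, hi⟩ := mem_zpowers_iff.1 (ht.ge (mem_top (y : K ⧸ pCore 2 K)))
    have ho : (x ^ i)⁻¹ * y ∈ pCore 2 K := QuotientGroup.eq.1 (by rw [← hi, QuotientGroup.mk_zpow])
    have hcm : Commute (x ^ i) ((x ^ i)⁻¹ * y) := mem_center_iff.1 (hc ho) _
    have e3 : ((x ^ i)⁻¹ * y) ^ 3 = 1 := by
      have h1 := hcm.mul_pow 3
      have h2 : (x ^ i) ^ 3 = 1 := by
        rw [← zpow_natCast, ← zpow_mul, mul_comm, zpow_mul, zpow_natCast, ← hx, pow_orderOf_eq_one, one_zpow]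
      have h4 : y ^ 3 = 1 := by rw [← hy.2, pow_orderOf_eq_one]
      rwa [mul_inv_cancel_left, h2, h4, one_mul, eq_comm] at h1
    obtain ⟨k, hk⟩ := hp ⟨_, ho⟩
    have hk' : ((x ^ i)⁻¹ * y) ^ 2 ^ k = 1 := congrArg Subtype.val hk
    have e1 : (x ^ i)⁻¹ * y = 1 := by
      have := pow_gcd_eq_one.2 ⟨e3, hk'⟩
      rwa [Nat.Coprime.gcd_eq_one (Nat.Coprime.pow_right k (by decide)), pow_one] at this
    rw [SetLike.mem_coe, ← inv_mul_eq_one.1 e1]
    exact zpow_mem (mem_zpowers x) i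
  · exact Or.inr (L2o.of_equiv ((QuotientGroup.quotientMulEquivOfEq (L2o.schur h3 _ hp hc hs)).trans
      QuotientGroup.quotientBot).symm hs)

variable {X : Type u} [Group X] [Finite X]

theorem top (H : Subgroup X) : X3 (⊤ : Subgroup (X3 H ⧸ pCore 2 (X3 H))) = ⊤ :=
  X3_quot (X3_top_of (X3_X3 H)) _ (CL.Amalg.isPGroup_pCore' 2 _)

theorem noA (hA : NoA X) (K : Subgroup X) : NoA (K ⧸ pCore 2 K) :=
  (hA.sub K).quot _ (CL.Amalg.isPGroup_pCore' 2 _)

theorem x3_sub (hA : NoA X) {H : Subgroup X} {x : X} (hxH : x ∈ H) (hx : orderOf x = 3)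
    (hs : Shape (X3 H)) : X3 H = zpowers x ∨ L2o (X3 H) := by
  refine (core (hA.sub _) (X3_top_of (X3_X3 H)) (x := ⟨x, mem_X3 hxH hx⟩)
    ((orderOf_coe _).symm.trans hx) hs).imp_left fun e => ?_
  refine le_antisymm (fun y hy => ?_) (zpowers_le.2 (mem_X3 hxH hx))
  obtain ⟨i, hi⟩ := mem_zpowers_iff.1 (e.ge (mem_top (⟨y, hy⟩ : X3 H)))
  exact mem_zpowers_iff.2 ⟨i, by simpa using congrArg Subtype.val hi⟩

end CL.Gg.Shp3
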